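import Mathlib
import Cfsg.Prelude.Def_KGroupFacts

/-!
# A criterion for the triviality of stem extensions, by double cosets of a subgroup

Let `σ : Γ → G` be a stem extension with a section `S` over the stabiliser `K` of a point `ω₀` of a `G`-set.  If `S`
extends to a map `ℓ` on `G` with `ℓ (k g k') = S k ℓ g S k'` and `ℓ t ℓ g = ℓ (t g)` for an element `t`, such that `K`
and `t` generate `G`, then `σ` is injective.  The failure of the last equation is a function of orbits of a subgroup of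
`K` on the `G`-set, and relators give linear relations between its values.
-/

set_option autoImplicit false

namespace Cfsg.Agent.Lib.Sporadic.Co3Mult

open MulAction
open scoped commutatorElement

variable {Γ G Ω : Type*} [Group Γ] [Group G] [MulAction G Ω]

/-! ### Sections over a stabiliser -/

/-- A section of a central extension over the stabiliser of a point. -/
structure Sct (σ : Γ →* G) (ω₀ : Ω) where
  /-- The map, which only matters on the stabiliser. -/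
  S : G → Γ
  hσ : ∀ k ∈ stabilizer G ω₀, σ (S k) = k
  hmul : ∀ k ∈ stabilizer G ω₀, ∀ l ∈ stabilizer G ω₀, S (k * l) = S k * S l
  hsurj : Function.Surjective σ
  hc : σ.ker ≤ Subgroup.center Γ

namespace Sct

variable {σ : Γ →* G} {ω₀ : Ω} (C : Sct σ ω₀)

theorem S_one : C.S 1 = 1 := by
  have h := C.hmul 1 (one_mem _) 1 (one_mem _)
  rw [mul_one] at h
  exact (mul_eq_left.mp h.symm)

theorem S_inv {k : G} (hk : k ∈ stabilizer G ω₀) : C.S k⁻¹ = (C.S k)⁻¹ := by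
  have h := C.hmul k hk k⁻¹ (inv_mem hk)
  rw [mul_inv_cancel, S_one] at h
  exact (inv_eq_of_mul_eq_one_right h.symm).symm

include C in
theorem central {x y : Γ} (h : σ x = 1) : x * y = y * x :=
  (Subgroup.mem_center_iff.mp (C.hc (MonoidHom.mem_ker.mpr h)) y).symm

/-- Conjugation through a lift. -/
def Gd (d v : G) : Prop :=
  v ∈ stabilizer G ω₀ ∧ d⁻¹ * v * d ∈ stabilizer G ω₀ ∧ ∀ x, σ x = d → C.S v * x = x * C.S (d⁻¹ * v * d)

theorem Gd_of_lift {d v : G} {x₀ : Γ} (hv : v ∈ stabilizer G ω₀) (hv' : d⁻¹ * v * d ∈ stabilizer G ω₀)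
    (hx₀ : σ x₀ = d) (h : C.S v * x₀ = x₀ * C.S (d⁻¹ * v * d)) : C.Gd d v := by
  refine ⟨hv, hv', fun x hx => ?_⟩
  have hz : σ (x₀⁻¹ * x) = 1 := by rw [map_mul, map_inv, hx₀, hx, inv_mul_cancel]
  have e : x = x₀ * (x₀⁻¹ * x) := by group
  rw [e, ← mul_assoc, h, mul_assoc, mul_assoc x₀ (x₀⁻¹ * x), C.central hz]

theorem Gd_mem {d v : G} (hd : d ∈ stabilizer G ω₀) (hv : v ∈ stabilizer G ω₀) : C.Gd d v := by
  have hv' : d⁻¹ * v * d ∈ stabilizer G ω₀ := mul_mem (mul_mem (inv_mem hd) hv) hd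
  refine C.Gd_of_lift hv hv' (C.hσ d hd) ?_
  rw [← C.hmul _ hv _ hd, ← C.hmul _ hd _ hv']
  congr 1
  group

theorem Gd_comp {d₁ d₂ v : G} (h₁ : C.Gd d₁ v) (h₂ : C.Gd d₂ (d₁⁻¹ * v * d₁)) : C.Gd (d₁ * d₂) v := by
  obtain ⟨hv, hv₁, H₁⟩ := h₁
  obtain ⟨-, hv₂, H₂⟩ := h₂
  have e : (d₁ * d₂)⁻¹ * v * (d₁ * d₂) = d₂⁻¹ * (d₁⁻¹ * v * d₁) * d₂ := by group
  refine ⟨hv, by rw [e]; exact hv₂, fun x hx => ?_⟩
  obtain ⟨x₁, hx₁⟩ := C.hsurj d₁
  have hx₂ : σ (x₁⁻¹ * x) = d₂ := by rw [map_mul, map_inv, hx₁, hx, inv_mul_cancel_left]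
  have e2 : x = x₁ * (x₁⁻¹ * x) := by group
  rw [e]
  conv_lhs => rw [e2]
  rw [← mul_assoc, H₁ x₁ hx₁, mul_assoc, H₂ _ hx₂, ← mul_assoc, ← e2]

theorem Gd_one (d : G) : C.Gd d 1 := by
  refine ⟨one_mem _, by simp [one_mem], fun x _ => ?_⟩
  have e : d⁻¹ * 1 * d = 1 := by group
  rw [e, C.S_one, one_mul, mul_one]

theorem Gd_mulv {d u v : G} (hu : C.Gd d u) (hv : C.Gd d v) : C.Gd d (u * v) := by
  obtain ⟨hu0, hu1, Hu⟩ := hu
  obtain ⟨hv0, hv1, Hv⟩ := hv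
  have e : d⁻¹ * (u * v) * d = (d⁻¹ * u * d) * (d⁻¹ * v * d) := by group
  refine ⟨mul_mem hu0 hv0, by rw [e]; exact mul_mem hu1 hv1, fun x hx => ?_⟩
  rw [C.hmul _ hu0 _ hv0, e, C.hmul _ hu1 _ hv1, mul_assoc, Hv x hx, ← mul_assoc, Hu x hx, mul_assoc]

theorem Gd_invv {d v : G} (hv : C.Gd d v) : C.Gd d v⁻¹ := by
  obtain ⟨hv0, hv1, Hv⟩ := hv
  have e : d⁻¹ * v⁻¹ * d = (d⁻¹ * v * d)⁻¹ := by group
  refine ⟨inv_mem hv0, by rw [e]; exact inv_mem hv1, fun x hx => ?_⟩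
  rw [e, C.S_inv hv0, C.S_inv hv1, inv_mul_eq_iff_eq_mul, ← mul_assoc, Hv x hx, mul_assoc, mul_inv_cancel, mul_one]

/-- The elements of a subgroup generated by good elements are good. -/
theorem Gd_closure {d v : G} {X : Set G} (hX : ∀ w ∈ X, C.Gd d w) (hv : v ∈ Subgroup.closure X) : C.Gd d v := by
  induction hv using Subgroup.closure_induction with
  | mem x hx => exact hX x hx
  | one => exact C.Gd_one d
  | mul x y _ _ ihx ihy => exact C.Gd_mulv ihx ihy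
  | inv x _ ih => exact C.Gd_invv ih

/-- Being good only depends on the image of the base point. -/
theorem Gd_transport {d d' v : G} (h : C.Gd d v) (e : d • ω₀ = d' • ω₀) : C.Gd d' v := by
  have hk : d⁻¹ * d' ∈ stabilizer G ω₀ := by
    rw [mem_stabilizer_iff, mul_smul, ← e, inv_smul_smul]
  have e2 : d' = d * (d⁻¹ * d') := by group
  rw [e2]
  exact C.Gd_comp h (C.Gd_mem hk h.2.1)

/-- The elements of a perfect subgroup are good. -/
theorem Gd_perfect {d : G} (Q : Subgroup G) (hQ : Q ≤ stabilizer G ω₀) (hQ' : ∀ q ∈ Q, d⁻¹ * q * d ∈ stabilizer G ω₀)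
    (hp : commutator Q = ⊤) {v : G} (hv : v ∈ Q) : C.Gd d v := by
  obtain ⟨x₀, hx₀⟩ := C.hsurj d
  -- the defect of an element of the subgroup
  have hmem : ∀ q : Q, C.S (q : G) * x₀ * (C.S (d⁻¹ * (q : G) * d))⁻¹ * x₀⁻¹ ∈ Subgroup.center Γ := by
    intro q
    apply C.hc
    rw [MonoidHom.mem_ker, map_mul, map_mul, map_mul, map_inv, map_inv, C.hσ _ (hQ q.2), C.hσ _ (hQ' _ q.2), hx₀]
    group
  let φ : Q →* Subgroup.center Γ :=
    { toFun := fun q => ⟨_, hmem q⟩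
      map_one' := by
        apply Subtype.ext
        have e : d⁻¹ * ((1 : Q) : G) * d = 1 := by simp
        show C.S ((1 : Q) : G) * x₀ * (C.S (d⁻¹ * ((1 : Q) : G) * d))⁻¹ * x₀⁻¹ = 1
        rw [e, Subgroup.coe_one, C.S_one]
        group
      map_mul' := fun p q => by
        apply Subtype.ext
        show C.S ((p * q : Q) : G) * x₀ * (C.S (d⁻¹ * ((p * q : Q) : G) * d))⁻¹ * x₀⁻¹ =
          (C.S (p : G) * x₀ * (C.S (d⁻¹ * (p : G) * d))⁻¹ * x₀⁻¹) *
            (C.S (q : G) * x₀ * (C.S (d⁻¹ * (q : G) * d))⁻¹ * x₀⁻¹)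
        have e : d⁻¹ * ((p * q : Q) : G) * d = (d⁻¹ * (p : G) * d) * (d⁻¹ * (q : G) * d) := by
          rw [Subgroup.coe_mul]
          group
        rw [e, Subgroup.coe_mul, C.hmul _ (hQ p.2) _ (hQ q.2), C.hmul _ (hQ' _ p.2) _ (hQ' _ q.2)]
        have hcen := Subgroup.mem_center_iff.mp (hmem q)
        set a := C.S (p : G)
        set b := C.S (q : G)
        set a' := C.S (d⁻¹ * (p : G) * d)
        set b' := C.S (d⁻¹ * (q : G) * d)
        set z := b * x₀ * b'⁻¹ * x₀⁻¹ with hz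
        have hb : b * x₀ = z * x₀ * b' := by
          rw [hz]
          group
        calc a * b * x₀ * (a' * b')⁻¹ * x₀⁻¹ = a * (b * x₀) * b'⁻¹ * a'⁻¹ * x₀⁻¹ := by group
          _ = a * (z * x₀ * b') * b'⁻¹ * a'⁻¹ * x₀⁻¹ := by rw [hb]
          _ = a * z * x₀ * a'⁻¹ * x₀⁻¹ := by group
          _ = z * a * x₀ * a'⁻¹ * x₀⁻¹ := by rw [← hcen a]
          _ = (a * x₀ * a'⁻¹ * x₀⁻¹) * z := by
            have h5 := hcen (a * x₀ * a'⁻¹ * x₀⁻¹)
            rw [h5]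
            group }
  have hle : commutator Q ≤ φ.ker := by
    rw [commutator_def, Subgroup.commutator_le]
    intro a _ b _
    rw [MonoidHom.mem_ker, map_commutatorElement, commutatorElement_eq_one_iff_mul_comm]
    apply Subtype.ext
    exact (Subgroup.mem_center_iff.mp (φ a).2 _).symm
  have h1 : (⟨v, hv⟩ : Q) ∈ φ.ker := hle (by rw [hp]; trivial)
  rw [MonoidHom.mem_ker] at h1
  have h2 : C.S v * x₀ * (C.S (d⁻¹ * v * d))⁻¹ * x₀⁻¹ = 1 := congrArg Subtype.val h1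
  refine C.Gd_of_lift (hQ hv) (hQ' _ hv) hx₀ ?_
  have h3 : C.S v * x₀ * (C.S (d⁻¹ * v * d))⁻¹ = x₀ := by
    rwa [mul_inv_eq_one] at h2
  rw [mul_inv_eq_iff_eq_mul] at h3
  exact h3

/-- One more step of a path. -/
theorem Gd_step {p k t v : G} (ht : ∀ w ∈ stabilizer G ω₀, w • (t • ω₀) = t • ω₀ → C.Gd t w) (h : C.Gd p v)
    (hk : k ∈ stabilizer G ω₀) (hfix : v • ((p * k * t) • ω₀) = (p * k * t) • ω₀) : C.Gd (p * k * t) v := by
  have h1 : C.Gd (p * k) v := C.Gd_comp h (C.Gd_mem hk h.2.1)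
  refine C.Gd_comp h1 (ht _ h1.2.1 ?_)
  have h2 : v • ((p * k) • (t • ω₀)) = (p * k) • (t • ω₀) := by simpa only [mul_smul] using hfix
  rw [mul_smul, mul_smul, h2, inv_smul_smul]

/-! ### The map on the group -/

variable {ι : Type*} {E : ι → G} {X : ι → Γ}

/-- The decomposition of an element along double cosets. -/
theorem exists_decomp (hCov : ∀ g : G, ∃ a, ∃ k ∈ stabilizer G ω₀, g • ω₀ = k • (E a • ω₀)) (g : G) :
    ∃ a, ∃ h ∈ stabilizer G ω₀, ∃ h' ∈ stabilizer G ω₀, g = h * E a * h' := by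
  obtain ⟨a, k, hk, e⟩ := hCov g
  refine ⟨a, k, hk, (k * E a)⁻¹ * g, ?_, by group⟩
  rw [mem_stabilizer_iff, mul_smul, e, inv_smul_eq_iff, mul_smul]

theorem exists_ell (hX : ∀ a, σ (X a) = E a)
    (hGood : ∀ a, ∀ v ∈ stabilizer G ω₀, v • (E a • ω₀) = E a • ω₀ → C.Gd (E a) v)
    (hCov : ∀ g : G, ∃ a, ∃ k ∈ stabilizer G ω₀, g • ω₀ = k • (E a • ω₀))
    (hDisj : ∀ a b, ∀ k ∈ stabilizer G ω₀, k • (E a • ω₀) = E b • ω₀ → a = b) (a₀ : ι) (h0 : E a₀ = 1) (h0' : X a₀ = 1) :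
    ∃ ℓ : G → Γ, (∀ g, σ (ℓ g) = g) ∧
      (∀ k ∈ stabilizer G ω₀, ∀ g, ∀ k' ∈ stabilizer G ω₀, ℓ (k * g * k') = C.S k * ℓ g * C.S k') ∧ ℓ 1 = 1 ∧
      ∀ a, ℓ (E a) = X a := by
  classical
  choose A H hH H' hH' e using exists_decomp (E := E) hCov
  let ℓ : G → Γ := fun g => C.S (H g) * X (A g) * C.S (H' g)
  have key : ∀ (g : G) (a : ι) (h : G) (hh : h ∈ stabilizer G ω₀) (h' : G) (hh' : h' ∈ stabilizer G ω₀),
      g = h * E a * h' → ℓ g = C.S h * X a * C.S h' := by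
    intro g a h hh h' hh' eg
    have e1 : H g * E (A g) * H' g = h * E a * h' := by rw [← e g, ← eg]
    have hu : h⁻¹ * H g ∈ stabilizer G ω₀ := mul_mem (inv_mem hh) (hH g)
    have e2 : (h⁻¹ * H g) • (E (A g) • ω₀) = E a • ω₀ := by
      have e3 : (H g * E (A g)) • ω₀ = (h * E a) • ω₀ := by
        have h4 := congrArg (fun x : G => x • ω₀) e1
        simp only [mul_smul] at h4
        have h5 : H' g • ω₀ = ω₀ := hH' g
        have h6 : h' • ω₀ = ω₀ := hh'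
        rw [h5, h6] at h4
        simpa only [mul_smul] using h4
      rw [mul_smul] at e3 ⊢
      rw [mul_smul] at e3
      rw [e3, inv_smul_smul]
    have ha : A g = a := hDisj _ _ _ hu e2
    rw [ha] at e1 e2
    have hG := hGood a _ hu e2
    have e4 : (E a)⁻¹ * (h⁻¹ * H g) * E a = h' * (H' g)⁻¹ := by
      have : h⁻¹ * H g * E a = E a * (h' * (H' g)⁻¹) := by
        have h7 : H g * E a = h * E a * h' * (H' g)⁻¹ := by
          rw [← e1]
          group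
        calc h⁻¹ * H g * E a = h⁻¹ * (H g * E a) := by group
          _ = h⁻¹ * (h * E a * h' * (H' g)⁻¹) := by rw [h7]
          _ = _ := by group
      calc (E a)⁻¹ * (h⁻¹ * H g) * E a = (E a)⁻¹ * (h⁻¹ * H g * E a) := by group
        _ = (E a)⁻¹ * (E a * (h' * (H' g)⁻¹)) := by rw [this]
        _ = _ := by group
    have h8 := hG.2.2 (X a) (hX a)
    rw [e4, C.hmul _ (inv_mem hh) _ (hH g), C.S_inv hh, C.hmul _ hh' _ (inv_mem (hH' g)), C.S_inv (hH' g)] at h8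
    show C.S (H g) * X (A g) * C.S (H' g) = _
    rw [ha]
    have h9 : C.S (H g) * X a = C.S h * (X a * (C.S h' * (C.S (H' g))⁻¹)) := by
      rw [← h8]
      group
    rw [h9]
    group
  refine ⟨ℓ, ?_, ?_, ?_, ?_⟩
  · intro g
    show σ (C.S (H g) * X (A g) * C.S (H' g)) = g
    rw [map_mul, map_mul, C.hσ _ (hH g), C.hσ _ (hH' g), hX, ← e g]
  · intro k hk g k' hk'
    have e5 : k * g * k' = (k * H g) * E (A g) * (H' g * k') := by
      conv_lhs => rw [e g]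
      group
    rw [key _ (A g) (k * H g) (mul_mem hk (hH g)) (H' g * k') (mul_mem (hH' g) hk') e5,
      C.hmul _ hk _ (hH g), C.hmul _ (hH' g) _ hk']
    show _ = C.S k * (C.S (H g) * X (A g) * C.S (H' g)) * C.S k'
    group
  · rw [key 1 a₀ 1 (one_mem _) 1 (one_mem _) (by rw [h0]; group), h0', C.S_one]
    group
  · intro a
    rw [key (E a) a 1 (one_mem _) 1 (one_mem _) (by group), C.S_one]
    group

/-! ### The criterion -/

/-- The criterion for a stem extension to be an isomorphism. -/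
theorem inj_of_ell [Finite Γ] (hcomm : σ.ker ≤ commutator Γ) {ℓ : G → Γ} (h1 : ∀ g, σ (ℓ g) = g)
    (h2 : ∀ k ∈ stabilizer G ω₀, ∀ g, ∀ k' ∈ stabilizer G ω₀, ℓ (k * g * k') = C.S k * ℓ g * C.S k') (h3 : ℓ 1 = 1)
    {t : G} (hgen : Subgroup.closure ((stabilizer G ω₀ : Set G) ∪ {t}) = ⊤) (hc : ∀ g, ℓ t * ℓ g = ℓ (t * g)) :
    Function.Injective σ := by
  classical
  set Y : Subgroup Γ := Subgroup.closure ((C.S '' (stabilizer G ω₀ : Set G)) ∪ {ℓ t}) with hY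
  -- the elements of `Y` preserve the image of `ℓ`
  have hP : ∀ y ∈ Y, ∀ g, ∃ g', y * ℓ g = ℓ g' := by
    have hgens : ∀ y ∈ (C.S '' (stabilizer G ω₀ : Set G)) ∪ {ℓ t}, ∀ g, ∃ g', y * ℓ g = ℓ g' := by
      rintro y (⟨k, hk, rfl⟩ | hy) g
      · refine ⟨k * g * 1, ?_⟩
        rw [h2 k hk g 1 (one_mem _), C.S_one, mul_one]
      · rw [Set.mem_singleton_iff] at hy
        subst hy
        exact ⟨t * g, hc g⟩
    have hmon : ∀ y ∈ Submonoid.closure ((C.S '' (stabilizer G ω₀ : Set G)) ∪ {ℓ t}), ∀ g, ∃ g', y * ℓ g = ℓ g' := by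
      intro y hy
      induction hy using Submonoid.closure_induction with
      | mem x hx => exact hgens x hx
      | one => exact fun g => ⟨g, one_mul _⟩
      | mul x y _ _ ihx ihy =>
        intro g
        obtain ⟨g1, e1⟩ := ihy g
        obtain ⟨g2, e2⟩ := ihx g1
        exact ⟨g2, by rw [mul_assoc, e1, e2]⟩
    intro y hy
    have h5 : y ∈ (Subgroup.closure ((C.S '' (stabilizer G ω₀ : Set G)) ∪ {ℓ t})).toSubmonoid := hy
    rw [Subgroup.closure_toSubmonoid_of_finite] at h5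
    exact hmon y h5
  -- the subgroup `Y` contains the kernel
  have hmapY : Y.map σ = ⊤ := by
    rw [eq_top_iff, ← hgen, Subgroup.closure_le]
    rintro g (hg | hg)
    · exact ⟨C.S g, Subgroup.subset_closure (Or.inl ⟨g, hg, rfl⟩), C.hσ g hg⟩
    · rw [Set.mem_singleton_iff] at hg
      subst hg
      exact ⟨ℓ g, Subgroup.subset_closure (Or.inr rfl), h1 g⟩
  have hdec : ∀ x : Γ, ∃ y ∈ Y, ∃ z, σ z = 1 ∧ x = y * z := by
    intro x
    have : σ x ∈ Y.map σ := by rw [hmapY]; trivial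
    obtain ⟨y, hy, e⟩ := this
    refine ⟨y, hy, y⁻¹ * x, by rw [map_mul, map_inv, e, inv_mul_cancel], by group⟩
  have hcY : commutator Γ ≤ Y := by
    rw [commutator_def, Subgroup.commutator_le]
    rintro a - b -
    obtain ⟨y1, hy1, z1, hz1, rfl⟩ := hdec a
    obtain ⟨y2, hy2, z2, hz2, rfl⟩ := hdec b
    have e : ⁅y1 * z1, y2 * z2⁆ = ⁅y1, y2⁆ := by
      have c1 : ∀ w, z1 * w = w * z1 := fun w => C.central hz1
      have c2 : ∀ w, z2 * w = w * z2 := fun w => C.central hz2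
      have c1i : ∀ w, z1⁻¹ * w = w * z1⁻¹ := fun w => C.central (by rw [map_inv, hz1, inv_one])
      have c2i : ∀ w, z2⁻¹ * w = w * z2⁻¹ := fun w => C.central (by rw [map_inv, hz2, inv_one])
      rw [commutatorElement_def, commutatorElement_def]
      have e3 : y1 * z1 * (y2 * z2) * (y1 * z1)⁻¹ * (y2 * z2)⁻¹ =
          y1 * y2 * y1⁻¹ * y2⁻¹ * (z1 * z1⁻¹) * (z2 * z2⁻¹) := by
        simp only [mul_inv_rev]
        rw [show y1 * z1 * (y2 * z2) * (z1⁻¹ * y1⁻¹) * (z2⁻¹ * y2⁻¹) =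
          y1 * (z1 * y2) * z2 * z1⁻¹ * y1⁻¹ * z2⁻¹ * y2⁻¹ by group, c1 y2]
        rw [show y1 * (y2 * z1) * z2 * z1⁻¹ * y1⁻¹ * z2⁻¹ * y2⁻¹ =
          y1 * y2 * z1 * (z2 * z1⁻¹) * y1⁻¹ * z2⁻¹ * y2⁻¹ by group, ← c1i z2]
        rw [show y1 * y2 * z1 * (z1⁻¹ * z2) * y1⁻¹ * z2⁻¹ * y2⁻¹ = y1 * y2 * (z2 * y1⁻¹) * z2⁻¹ * y2⁻¹ by group, c2 y1⁻¹]
        group
      rw [e3]
      group
    rw [e]
    rw [commutatorElement_def]
    exact mul_mem (mul_mem (mul_mem hy1 hy2) (inv_mem hy1)) (inv_mem hy2)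
  intro a b hab
  have hz : a * b⁻¹ ∈ σ.ker := by rw [MonoidHom.mem_ker, map_mul, map_inv, hab, mul_inv_cancel]
  obtain ⟨g', e⟩ := hP _ (hcY (hcomm hz)) 1
  rw [h3, mul_one] at e
  have h6 : g' = 1 := by
    have := congrArg σ e
    rw [h1, MonoidHom.mem_ker.mp hz] at this
    exact this.symm
  rw [h6, h3] at e
  exact mul_inv_eq_one.mp e

end Sct

end Cfsg.Agent.Lib.Sporadic.Co3Mult
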