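import Cfsg.Agent.Lib.Sporadic.Co3Mult.Walk
import Cfsg.Agent.Lib.Compute.SchurLin

/-!
# The final form of the criterion
-/

set_option autoImplicit false

namespace Cfsg.Agent.Lib.Sporadic.Co3Mult

open MulAction Cfsg.Agent.Lib.Compute.SchurLin

section Words

variable {Γ G : Type*} [Group Γ] [Group G]

theorem wL_ker {σ : Γ →* G} {T : Γ} {t : G} {S : G → Γ} (hT : σ T = t) :
    ∀ ks : List G, (∀ k ∈ ks, σ (S k) = k) → σ (wL T S ks) = wG t ks
  | [], _ => by simp [wL, wG]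
  | k :: ks, h => by
    simp only [wL, wG, map_mul]
    rw [wL_ker hT ks (fun x hx => h x (by simp [hx])), hT, h k (by simp)]

theorem wL_append (T : Γ) (S : G → Γ) (k : G) : ∀ ks : List G, wL T S (ks ++ [k]) = T * S k * wL T S ks
  | [] => by simp [wL]
  | a :: ks => by
    simp only [List.cons_append, wL]
    rw [wL_append T S k ks]
    group

theorem wG_append (t k : G) : ∀ ks : List G, wG t (ks ++ [k]) = t * k * wG t ks
  | [] => by simp [wG]
  | a :: ks => by
    simp only [List.cons_append, wG]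
    rw [wG_append t k ks]
    group

theorem wL_scale {T z : Γ} (S : G → Γ) (hz : ∀ x, z * x = x * z) :
    ∀ ks : List G, wL (T * z) S ks = wL T S ks * z ^ ks.length
  | [] => by simp [wL]
  | a :: ks => by
    simp only [wL, List.length_cons]
    rw [wL_scale S hz ks]
    have h1 : ∀ x, z ^ ks.length * x = x * z ^ ks.length := by
      intro x
      exact (Commute.pow_left (hz x) _).eq
    calc wL T S ks * z ^ ks.length * (T * z) * S a = wL T S ks * (z ^ ks.length * T) * z * S a := by group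
      _ = wL T S ks * T * z ^ ks.length * z * S a := by rw [h1 T]; group
      _ = wL T S ks * T * (z ^ ks.length * z) * S a := by group
      _ = wL T S ks * T * (S a * z ^ (ks.length + 1)) := by
        rw [mul_assoc _ _ (S a), pow_succ, mul_assoc, mul_assoc (z ^ ks.length), ]
        have h2 := h1 (z * S a)
        rw [h2, hz (S a)]
        group
      _ = _ := by group

end Words

variable {G Ω : Type} [Group G] [Finite G] [MulAction G Ω] {ω₀ : Ω}

/-- The section given by a homomorphism. -/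
noncomputable def sctOf {Γ : Type} [Group Γ] (σ : Γ →* G) (hsurj : Function.Surjective σ) (hc : σ.ker ≤ Subgroup.center Γ)
    (s : stabilizer G ω₀ →* Γ) (hs : ∀ l, σ (s l) = l) : Sct σ ω₀ := by
  classical
  exact
  { S := fun g => if h : g ∈ stabilizer G ω₀ then s ⟨g, h⟩ else 1
    hσ := fun k hk => by
      simp only [dif_pos hk]
      exact hs _
    hmul := fun k hk l hl => by
      simp only [dif_pos hk, dif_pos hl, dif_pos (mul_mem hk hl)]
      rw [← map_mul]
      rfl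
    hsurj := hsurj
    hc := hc }

theorem wG_mem_closure {H : Subgroup G} {t : G} (ht : t ∈ H) : ∀ ks : List G, (∀ k ∈ ks, k ∈ H) → wG t ks ∈ H
  | [], _ => one_mem _
  | k :: ks, h => by
    simp only [wG]
    exact mul_mem (mul_mem (wG_mem_closure ht ks (fun x hx => h x (by simp [hx]))) ht) (h k (by simp))

/-- The criterion. -/
theorem trivMult_of_cone (hperf : commutator (stabilizer G ω₀) = ⊤) (htriv : TrivMult (stabilizer G ω₀))
    (t : G) {ι : Type} (ks : ι → List G) (hks : ∀ a, ∀ k ∈ ks a, k ∈ stabilizer G ω₀)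
    (a₀ : ι) (h0 : ks a₀ = []) (a₁ : ι) (k₁ : G) (h1 : ks a₁ = [k₁])
    (hCov : ∀ g : G, ∃ a, ∃ k ∈ stabilizer G ω₀, g • ω₀ = k • (wG t (ks a) • ω₀))
    (hDisj : ∀ a b, ∀ k ∈ stabilizer G ω₀, k • (wG t (ks a) • ω₀) = wG t (ks b) • ω₀ → a = b)
    (hGood : ∀ (Γ : Type) [Group Γ] [Finite Γ] (σ : Γ →* G) (C : Sct σ ω₀), ∀ a, ∀ v ∈ stabilizer G ω₀,
      v • (wG t (ks a) • ω₀) = wG t (ks a) • ω₀ → C.Gd (wG t (ks a)) v)
    (as bs : ι) (hlen : (ks as).length = (ks bs).length) (w h₁ : G) (hw : w ∈ stabilizer G ω₀)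
    (hh₁ : h₁ ∈ stabilizer G ω₀)
    (hstar : (t * w * wG t (ks as)) • ω₀ = (h₁ * wG t (ks bs)) • ω₀)
    (hFinal : ∀ (Γ : Type) [Group Γ] [Finite Γ] (σ : Γ →* G) (C : Sct σ ω₀) (L : Ell C t),
      (∀ b par k, ks b = ks par ++ [k] → L.cc (k * wG t (ks par)) = 1) → L.cc (w * wG t (ks as)) = 1 → ∀ g, L.cc g = 1) :
    TrivMult G := by
  intro Γ _ _ σ hstem
  obtain ⟨s, hs⟩ := exists_section_of_perfect σ hstem.1 hstem.2.1 _ hperf htriv
  let C : Sct σ ω₀ := sctOf σ hstem.1 hstem.2.1 s hs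
  obtain ⟨T₀, hT₀⟩ := hstem.1 t
  set E : ι → G := fun a => wG t (ks a) with hE
  -- the element `h₂`
  set h₂ : G := (h₁ * E bs)⁻¹ * (t * w * E as) with hh₂
  have hh₂m : h₂ ∈ stabilizer G ω₀ := by
    rw [mem_stabilizer_iff, hh₂, mul_smul, inv_smul_eq_iff]
    exact hstar
  have hSσ : ∀ k ∈ stabilizer G ω₀, σ (C.S k) = k := C.hσ
  have hker : ∀ T, σ T = t → ∀ a, σ (wL T C.S (ks a)) = E a := by
    intro T hT a
    exact wL_ker hT _ (fun k hk => hSσ k (hks a k hk))
  -- the element to be removed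
  set Φ : Γ → Γ := fun T => T * C.S w * wL T C.S (ks as) * (C.S h₁ * wL T C.S (ks bs) * C.S h₂)⁻¹ with hΦ
  have hΦker : σ (Φ T₀) = 1 := by
    simp only [hΦ, map_mul, map_inv]
    rw [hker T₀ hT₀ as, hker T₀ hT₀ bs, hSσ w hw, hSσ h₁ hh₁, hSσ h₂ hh₂m, hT₀, hh₂]
    group
  set z : Γ := (Φ T₀)⁻¹ with hz
  have hzker : σ z = 1 := by
    rw [hz, map_inv, hΦker, inv_one]
  have hzc : ∀ x, z * x = x * z := fun x => C.central hzker
  set T : Γ := T₀ * z with hTdef
  have hT : σ T = t := by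
    rw [hTdef, map_mul, hT₀, hzker, mul_one]
  have hΦ1 : Φ T = 1 := by
    have e1 := wL_scale (T := T₀) C.S hzc (ks as)
    have e2 := wL_scale (T := T₀) C.S hzc (ks bs)
    have hp : ∀ x, z ^ (ks bs).length * x = x * z ^ (ks bs).length := fun x => (Commute.pow_left (hzc x) _).eq
    have hΦT : Φ T = Φ T₀ * z := by
      simp only [hΦ, hTdef]
      rw [e1, e2, hlen]
      have h3 : C.S h₁ * (wL T₀ C.S (ks bs) * z ^ (ks bs).length) * C.S h₂ =
          (C.S h₁ * wL T₀ C.S (ks bs) * C.S h₂) * z ^ (ks bs).length := by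
        rw [mul_assoc (C.S h₁ * wL T₀ C.S (ks bs)), ← hp (C.S h₂)]
        group
      rw [h3, mul_inv_rev]
      have h4 : T₀ * z * C.S w = T₀ * C.S w * z := by
        rw [mul_assoc, hzc, mul_assoc]
      rw [h4]
      generalize (C.S h₁ * wL T₀ C.S (ks bs) * C.S h₂) = A
      generalize wL T₀ C.S (ks bs) = B
      generalize z ^ (ks bs).length = P at *
      have h5 : T₀ * C.S w * z * (wL T₀ C.S (ks as) * P) * (P⁻¹ * A⁻¹) =
          T₀ * C.S w * z * wL T₀ C.S (ks as) * A⁻¹ := by group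
      rw [h5]
      have h6 : T₀ * C.S w * z * wL T₀ C.S (ks as) = T₀ * C.S w * wL T₀ C.S (ks as) * z := by
        rw [mul_assoc (T₀ * C.S w), hzc]
        group
      rw [h6, mul_assoc (T₀ * C.S w * wL T₀ C.S (ks as)), hzc]
      group
    rw [hΦT, hz, mul_inv_cancel]
  -- the map
  set X : ι → Γ := fun a => wL T C.S (ks a) with hX
  have hXk : ∀ a, σ (X a) = E a := hker T hT
  have hE0 : E a₀ = 1 := by
    simp only [hE, h0, wG]
  have hX0 : X a₀ = 1 := by
    simp only [hX, h0, wL]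
  obtain ⟨ℓ, hℓ1, hℓ2, hℓ3, hℓ4⟩ := C.exists_ell (E := E) (X := X) hXk (hGood Γ σ C) hCov hDisj a₀ hE0 hX0
  let L : Ell C t := ⟨ℓ, hℓ1, hℓ2⟩
  have hk₁ : k₁ ∈ stabilizer G ω₀ := hks a₁ k₁ (by simp [h1])
  have elR : ∀ g, ∀ k ∈ stabilizer G ω₀, ℓ (g * k) = ℓ g * C.S k := fun g k hk => L.ell_right g hk
  have elL : ∀ k ∈ stabilizer G ω₀, ∀ g, ℓ (k * g) = C.S k * ℓ g := fun k hk g => L.ell_left hk g
  -- the image of `t`
  have hℓt : ℓ t = T := by
    have e1 : E a₁ = t * k₁ := by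
      simp only [hE, h1, wG, one_mul]
    have e2 : X a₁ = T * C.S k₁ := by
      simp only [hX, h1, wL, one_mul]
    have e3 := hℓ4 a₁
    rw [e1, e2, elR t _ hk₁] at e3
    exact mul_right_cancel e3
  -- the tree
  have htree : ∀ b par k, ks b = ks par ++ [k] → L.cc (k * wG t (ks par)) = 1 := by
    intro b par k hb
    have hk : k ∈ stabilizer G ω₀ := hks b k (by simp [hb])
    have e1 : t * (k * E par) = E b := by
      simp only [hE, hb]
      rw [wG_append]
      group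
    have e2 : X b = T * C.S k * X par := by
      simp only [hX, hb]
      rw [wL_append]
    show ℓ t * ℓ (k * E par) * (ℓ (t * (k * E par)))⁻¹ = 1
    have e3 : ℓ (k * E par) = C.S k * X par := by
      rw [elL _ hk, hℓ4]
    rw [e3, e1, hℓ4, e2, hℓt]
    group
  have hstarc : L.cc (w * wG t (ks as)) = 1 := by
    show ℓ t * ℓ (w * E as) * (ℓ (t * (w * E as)))⁻¹ = 1
    have e3 : ℓ (w * E as) = C.S w * X as := by
      rw [elL _ hw, hℓ4]
    have e4 : t * (w * E as) = h₁ * E bs * h₂ := by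
      rw [hh₂]
      group
    rw [e3, e4, hℓ2 _ hh₁ _ _ hh₂m, hℓ4, hℓt]
    have := hΦ1
    simp only [hΦ] at this
    rw [← mul_assoc]
    exact this
  have hall := hFinal Γ σ C L htree hstarc
  have hc : ∀ g, ℓ t * ℓ g = ℓ (t * g) := by
    intro g
    have := hall g
    have e : ℓ t * ℓ g * (ℓ (t * g))⁻¹ = 1 := this
    rwa [mul_inv_eq_one] at e
  -- generation
  have hgen : Subgroup.closure ((stabilizer G ω₀ : Set G) ∪ {t}) = ⊤ := by
    rw [eq_top_iff]
    rintro g -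
    set H := Subgroup.closure ((stabilizer G ω₀ : Set G) ∪ {t}) with hH
    have htH : t ∈ H := Subgroup.subset_closure (Or.inr rfl)
    have hKH : ∀ k ∈ stabilizer G ω₀, k ∈ H := fun k hk => Subgroup.subset_closure (Or.inl hk)
    obtain ⟨a, k, hk, e⟩ := hCov g
    have hEH : E a ∈ H := wG_mem_closure htH _ (fun x hx => hKH x (hks a x hx))
    have h5 : (k * E a)⁻¹ * g ∈ stabilizer G ω₀ := by
      rw [mem_stabilizer_iff, mul_smul, e, inv_smul_eq_iff, mul_smul]
    have h6 : g = (k * E a) * ((k * E a)⁻¹ * g) := by group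
    rw [h6]
    exact mul_mem (mul_mem (hKH k hk) hEH) (hKH _ h5)
  exact C.inj_of_ell hstem.2.2 hℓ1 hℓ2 hℓ3 hgen hc

end Cfsg.Agent.Lib.Sporadic.Co3Mult
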