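import Mathlib

/-!
# Counting the orbits of a subgroup, with lower bounds for the orders of the stabilisers
-/

set_option autoImplicit false

namespace Cfsg.Agent.Lib.Sporadic.Co3Mult

open MulAction

variable {G Ω : Type*} [Group G] [MulAction G Ω]

/-- The stabiliser inside a subgroup. -/
def stabInf (A : Subgroup G) (x : Ω) : stabilizer A x ≃* ↥(A ⊓ stabilizer G x) where
  toFun z := ⟨z.1.1, z.1.2, z.2⟩
  invFun z := ⟨⟨z.1, z.2.1⟩, z.2.2⟩
  left_inv _ := rfl
  right_inv _ := rfl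
  map_mul' _ _ := rfl

/-- Orbit-stabiliser inside a subgroup. -/
theorem card_inf_mul (A : Subgroup G) (x : Ω) :
    Nat.card ↥(A ⊓ stabilizer G x) * (orbit A x).ncard = Nat.card A := by
  have h3 := (stabilizer A x).card_mul_index
  rw [index_stabilizer, Nat.card_congr (stabInf A x).toEquiv] at h3
  exact h3

/-- The data of the orbits of a subgroup: the subgroups are the stabilisers, and the orbits are disjoint. -/
theorem orbit_data {ι : Type*} [Fintype ι] [Finite G] (K : Subgroup G) (Y : ι → Ω) (Q : ι → Subgroup G) (n m : ι → ℕ)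
    (hQ : ∀ a, Q a ≤ K ⊓ stabilizer G (Y a)) (hm : ∀ a, m a ≤ Nat.card (Q a)) (hn0 : ∀ a, 0 < n a) (hm0 : ∀ a, 0 < m a)
    (hK : ∀ a, n a * m a = Nat.card K) (T : Set Ω) (hT : T.Finite) (hcard : T.ncard = ∑ a, n a)
    (hcov : ∀ y ∈ T, ∃ a, y ∈ orbit K (Y a)) :
    (∀ a, Q a = K ⊓ stabilizer G (Y a)) ∧ ∀ a b, (∃ k ∈ K, k • Y a = Y b) → a = b := by
  classical
  have hfin : ∀ a, (orbit K (Y a)).Finite := fun a => Set.finite_range _
  have hcS : ∀ a, m a ≤ Nat.card ↥(K ⊓ stabilizer G (Y a)) := fun a =>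
    (hm a).trans (Subgroup.card_le_of_le (hQ a))
  have hle : ∀ a, (orbit K (Y a)).ncard ≤ n a := by
    intro a
    have h1 := card_inf_mul K (Y a)
    have h2 := hK a
    by_contra hc
    rw [not_le] at hc
    have h3 : m a * (n a + 1) ≤ Nat.card ↥(K ⊓ stabilizer G (Y a)) * (orbit K (Y a)).ncard :=
      Nat.mul_le_mul (hcS a) hc
    nlinarith [hm0 a]
  have hsub : T ⊆ ⋃ a, orbit K (Y a) := fun y hy => by
    obtain ⟨a, ha⟩ := hcov y hy
    exact Set.mem_iUnion.mpr ⟨a, ha⟩
  have hU : ((⋃ a, orbit K (Y a)) : Set Ω).Finite := Set.finite_iUnion hfin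
  have h4 : T.ncard ≤ (⋃ a, orbit K (Y a)).ncard := Set.ncard_le_ncard hsub hU
  have h5 : (⋃ a, orbit K (Y a)).ncard ≤ ∑ a, (orbit K (Y a)).ncard := by
    have := (Finset.univ : Finset ι).set_ncard_biUnion_le (fun a => orbit K (Y a))
    simpa using this
  have h6 : ∑ a, n a ≤ ∑ a, (orbit K (Y a)).ncard := by
    rw [← hcard]
    exact h4.trans h5
  have heq : ∀ a, (orbit K (Y a)).ncard = n a := by
    intro a
    by_contra hne
    have hlt : (orbit K (Y a)).ncard < n a := lt_of_le_of_ne (hle a) hne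
    have := Finset.sum_lt_sum (s := Finset.univ) (fun b _ => hle b) ⟨a, Finset.mem_univ a, hlt⟩
    omega
  constructor
  · intro a
    apply Subgroup.eq_of_le_of_card_ge (hQ a)
    have h1 := card_inf_mul K (Y a)
    rw [heq a, ← hK a] at h1
    have h2 : Nat.card ↥(K ⊓ stabilizer G (Y a)) = m a := by
      have := hn0 a
      nlinarith [Nat.eq_of_mul_eq_mul_right this (by rw [h1, mul_comm] : Nat.card ↥(K ⊓ stabilizer G (Y a)) * n a = m a * n a)]
    rw [h2]
    exact hm a
  · rintro a b ⟨k, hk, e⟩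
    by_contra hne
    have hsame : orbit K (Y b) = orbit K (Y a) := by
      have h1 : Y b ∈ orbit K (Y a) := ⟨⟨k, hk⟩, e⟩
      exact orbit_eq_iff.mpr h1
    have hsub2 : T ⊆ ⋃ c ∈ (Finset.univ.erase b : Finset ι), orbit K (Y c) := by
      intro y hy
      obtain ⟨c, hc⟩ := hcov y hy
      by_cases hcb : c = b
      · subst hcb
        rw [hsame] at hc
        exact Set.mem_biUnion (Finset.mem_coe.mpr (Finset.mem_erase.mpr ⟨hne, Finset.mem_univ _⟩)) hc
      · exact Set.mem_biUnion (Finset.mem_coe.mpr (Finset.mem_erase.mpr ⟨hcb, Finset.mem_univ _⟩)) hc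
    have hU2 : (⋃ c ∈ (Finset.univ.erase b : Finset ι), orbit K (Y c)).Finite :=
      Set.Finite.biUnion (Finset.finite_toSet _) (fun c _ => hfin c)
    have h7 := Set.ncard_le_ncard hsub2 hU2
    have h8 := (Finset.univ.erase b : Finset ι).set_ncard_biUnion_le (fun c => orbit K (Y c))
    have h9 : ∑ c ∈ (Finset.univ.erase b : Finset ι), (orbit K (Y c)).ncard ≤ ∑ c ∈ (Finset.univ.erase b : Finset ι), n c :=
      Finset.sum_le_sum fun c _ => hle c
    have h10 := Finset.add_sum_erase (Finset.univ : Finset ι) n (Finset.mem_univ b)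
    have := hn0 b
    omega

end Cfsg.Agent.Lib.Sporadic.Co3Mult
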