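import Cfsg.Agent.Lib.Sporadic.Co3Mult.Cone

/-!
# The defect of a section on double cosets, and the linear relations given by relators
-/

set_option autoImplicit false

namespace Cfsg.Agent.Lib.Sporadic.Co3Mult

open MulAction

variable {Γ G Ω : Type*} [Group Γ] [Group G] [MulAction G Ω]

/-- The words in the group. -/
def wG (t : G) : List G → G
  | [] => 1
  | k :: ks => wG t ks * t * k

/-- The words in the extension. -/
def wL (T : Γ) (S : G → Γ) : List G → Γ
  | [] => 1
  | k :: ks => wL T S ks * T * S k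

/-- A section with a map on the group. -/
structure Ell {σ : Γ →* G} {ω₀ : Ω} (C : Sct σ ω₀) (t : G) where
  /-- The map. -/
  ℓ : G → Γ
  h1 : ∀ g, σ (ℓ g) = g
  h2 : ∀ k ∈ stabilizer G ω₀, ∀ g, ∀ k' ∈ stabilizer G ω₀, ℓ (k * g * k') = C.S k * ℓ g * C.S k'

namespace Ell

variable {σ : Γ →* G} {ω₀ : Ω} {C : Sct σ ω₀} {t : G} (L : Ell C t)

/-- The defect of the map. -/
def cc (g : G) : Γ := L.ℓ t * L.ℓ g * (L.ℓ (t * g))⁻¹

theorem cc_ker (g : G) : σ (L.cc g) = 1 := by
  unfold cc
  rw [map_mul, map_mul, map_inv, L.h1, L.h1, L.h1]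
  group

theorem ell_left {k : G} (hk : k ∈ stabilizer G ω₀) (g : G) : L.ℓ (k * g) = C.S k * L.ℓ g := by
  have h := L.h2 k hk g 1 (one_mem _)
  rwa [mul_one, C.S_one, mul_one] at h

theorem ell_right (g : G) {k : G} (hk : k ∈ stabilizer G ω₀) : L.ℓ (g * k) = L.ℓ g * C.S k := by
  have h := L.h2 1 (one_mem _) g k hk
  rwa [one_mul, C.S_one, one_mul] at h

theorem cc_right (g : G) {k : G} (hk : k ∈ stabilizer G ω₀) : L.cc (g * k) = L.cc g := by
  unfold cc
  rw [L.ell_right g hk, ← mul_assoc t, L.ell_right (t * g) hk]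
  group

theorem cc_left {u : G} (hu : u ∈ stabilizer G ω₀) (hu' : t * u * t⁻¹ ∈ stabilizer G ω₀) (g : G) :
    L.cc (u * g) = L.cc g := by
  have e1 : t * u = (t * u * t⁻¹) * t := by group
  have e2 : L.ℓ t * C.S u = C.S (t * u * t⁻¹) * L.ℓ t := by
    have h3 := L.ell_left hu' t
    rw [← e1] at h3
    rw [← L.ell_right t hu]
    exact h3
  have e3 : t * (u * g) = (t * u * t⁻¹) * (t * g) := by group
  have hc : L.cc g * C.S (t * u * t⁻¹) = C.S (t * u * t⁻¹) * L.cc g := C.central (L.cc_ker g)
  show L.ℓ t * L.ℓ (u * g) * (L.ℓ (t * (u * g)))⁻¹ = L.cc g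
  rw [L.ell_left hu g, e3, L.ell_left hu' (t * g), ← mul_assoc, e2, mul_inv_rev]
  have e4 : C.S (t * u * t⁻¹) * L.ℓ t * L.ℓ g * ((L.ℓ (t * g))⁻¹ * (C.S (t * u * t⁻¹))⁻¹) =
      C.S (t * u * t⁻¹) * L.cc g * (C.S (t * u * t⁻¹))⁻¹ := by
    unfold cc
    group
  rw [e4, ← hc]
  group

open Classical in
/-- The defect as a function on the `G`-set. -/
noncomputable def Cy (y : Ω) : Γ := if h : ∃ g : G, g • ω₀ = y then L.cc h.choose else 1

theorem Cy_smul (g : G) : L.Cy (g • ω₀) = L.cc g := by
  classical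
  have h : ∃ g' : G, g' • ω₀ = g • ω₀ := ⟨g, rfl⟩
  unfold Cy
  rw [dif_pos h]
  have hk : g⁻¹ * h.choose ∈ stabilizer G ω₀ := by
    rw [mem_stabilizer_iff, mul_smul, h.choose_spec, inv_smul_smul]
  have e : h.choose = g * (g⁻¹ * h.choose) := by group
  rw [e, L.cc_right g hk]

theorem Cy_ker (y : Ω) : σ (L.Cy y) = 1 := by
  classical
  unfold Cy
  split_ifs with h
  · exact L.cc_ker _
  · exact map_one σ

theorem Cy_inv {u : G} (hu : u ∈ stabilizer G ω₀) (hu' : u • (t⁻¹ • ω₀) = t⁻¹ • ω₀) (y : Ω) :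
    L.Cy (u • y) = L.Cy y := by
  classical
  by_cases h : ∃ g : G, g • ω₀ = y
  · obtain ⟨g, rfl⟩ := h
    rw [← mul_smul, L.Cy_smul, L.Cy_smul]
    refine L.cc_left hu ?_ g
    rw [mem_stabilizer_iff, mul_smul, mul_smul, hu', smul_inv_smul]
  · have h' : ¬ ∃ g : G, g • ω₀ = u • y := by
      rintro ⟨g, e⟩
      exact h ⟨u⁻¹ * g, by rw [mul_smul, e, inv_smul_smul]⟩
    unfold Cy
    rw [dif_neg h, dif_neg h']

/-- The product of the defects along a walk. -/
noncomputable def wC (t : G) (L : Ell C t) : List G → Ω → Γ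
  | [], _ => 1
  | k :: ks, y => L.Cy (k • y) * wC t L ks (t • k • y)

theorem wC_ker : ∀ (ks : List G) (y : Ω), σ (wC t L ks y) = 1
  | [], _ => map_one σ
  | k :: ks, y => by
    rw [wC, map_mul, L.Cy_ker, wC_ker ks, one_mul]

theorem walk (ks : List G) (hks : ∀ k ∈ ks, k ∈ stabilizer G ω₀) (g : G) :
    wL (L.ℓ t) C.S ks * L.ℓ g = wC t L ks (g • ω₀) * L.ℓ (wG t ks * g) := by
  induction ks generalizing g with
  | nil =>
    simp [wL, wC, wG]
  | cons k ks ih =>
    have hk : k ∈ stabilizer G ω₀ := hks k (by simp)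
    have e1 : L.ℓ t * L.ℓ (k * g) = L.cc (k * g) * L.ℓ (t * (k * g)) := by
      unfold cc
      group
    have hcen : ∀ x : Γ, L.cc (k * g) * x = x * L.cc (k * g) := fun x => C.central (L.cc_ker _)
    have e2 := ih (fun x hx => hks x (by simp [hx])) (t * (k * g))
    calc wL (L.ℓ t) C.S (k :: ks) * L.ℓ g
        = wL (L.ℓ t) C.S ks * (L.ℓ t * (C.S k * L.ℓ g)) := by simp only [wL]; group
      _ = wL (L.ℓ t) C.S ks * (L.cc (k * g) * L.ℓ (t * (k * g))) := by rw [← L.ell_left hk g, e1]
      _ = L.cc (k * g) * (wL (L.ℓ t) C.S ks * L.ℓ (t * (k * g))) := by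
        rw [← mul_assoc, ← hcen, mul_assoc]
      _ = L.cc (k * g) * (wC t L ks ((t * (k * g)) • ω₀) * L.ℓ (wG t ks * (t * (k * g)))) := by rw [e2]
      _ = _ := by
        have e3 : (t * (k * g)) • ω₀ = t • k • g • ω₀ := by simp only [mul_smul]
        have e4 : wG t ks * (t * (k * g)) = wG t (k :: ks) * g := by
          simp only [wG]
          group
        have e5 : L.Cy (k • g • ω₀) = L.cc (k * g) := by rw [← mul_smul, L.Cy_smul]
        rw [wC, e3, e4, e5]
        group

/-- The product of the defects along a closed walk does not depend on the starting point. -/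
theorem walk_const (ks : List G) (hks : ∀ k ∈ ks, k ∈ stabilizer G ω₀) (h : wG t ks = 1) (g g' : G) :
    wC t L ks (g • ω₀) = wC t L ks (g' • ω₀) := by
  have e : ∀ g : G, wC t L ks (g • ω₀) = wL (L.ℓ t) C.S ks := by
    intro g
    have h1 := L.walk ks hks g
    rw [h, one_mul] at h1
    exact (mul_right_cancel h1).symm
  rw [e, e]

end Ell

/-! ### Linear algebra -/

section Lin

variable {A : Type*} [CommGroup A]

/-- The product of the powers of a family of elements. -/
def evF (x : ℕ → A) (m : ℕ) (f : ℕ → ℤ) : A := ∏ i ∈ Finset.range m, x i ^ f i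

theorem evF_add (x : ℕ → A) (m : ℕ) (f g : ℕ → ℤ) : evF x m (fun i => f i + g i) = evF x m f * evF x m g := by
  unfold evF
  rw [← Finset.prod_mul_distrib]
  exact Finset.prod_congr rfl fun i _ => zpow_add _ _ _

theorem evF_mul (x : ℕ → A) (m : ℕ) (c : ℤ) (f : ℕ → ℤ) : evF x m (fun i => c * f i) = evF x m f ^ c := by
  unfold evF
  rw [← Finset.prod_zpow]
  refine Finset.prod_congr rfl fun i _ => ?_
  beta_reduce
  rw [mul_comm, zpow_mul]

/-- A linear combination of rows. -/
def comb : List ℤ → List (List ℤ) → ℕ → ℤ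
  | c :: cs, r :: rs, i => c * r.getD i 0 + comb cs rs i
  | _, _, _ => 0

theorem evF_comb (x : ℕ → A) (m : ℕ) (rows : List (List ℤ)) (hr : ∀ r ∈ rows, evF x m (fun i => r.getD i 0) = 1)
    (cs : List ℤ) : evF x m (comb cs rows) = 1 := by
  induction cs generalizing rows with
  | nil =>
    have : comb [] rows = fun _ => 0 := rfl
    rw [this]
    unfold evF
    simp
  | cons c cs ih =>
    cases rows with
    | nil =>
      have : comb (c :: cs) [] = fun _ => 0 := rfl
      rw [this]
      unfold evF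
      simp
    | cons r rs =>
      have : comb (c :: cs) (r :: rs) = fun i => (c * r.getD i 0) + comb cs rs i := rfl
      rw [this, evF_add, evF_mul, hr r (by simp), ih rs (fun r' hr' => hr r' (by simp [hr'])), one_zpow, one_mul]

/-- If a linear combination of the rows is a unit vector, then the corresponding element is trivial. -/
theorem solve (x : ℕ → A) (m : ℕ) (rows : List (List ℤ)) (hr : ∀ r ∈ rows, evF x m (fun i => r.getD i 0) = 1)
    (cs : List ℤ) (j : ℕ) (hj : j < m) (hc : ∀ i < m, comb cs rows i = if i = j then 1 else 0) : x j = 1 := by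
  have h := evF_comb x m rows hr cs
  have e : evF x m (comb cs rows) = x j := by
    unfold evF
    rw [Finset.prod_eq_single j]
    · rw [hc j hj, if_pos rfl, zpow_one]
    · intro i hi hne
      rw [hc i (Finset.mem_range.mp hi), if_neg hne, zpow_zero]
    · intro h'
      exact absurd (Finset.mem_range.mpr hj) h'
  rwa [e] at h

/-- The product of a list of the elements. -/
theorem prod_map_eq_evF (x : ℕ → A) (m : ℕ) (l : List ℕ) (hl : ∀ i ∈ l, i < m) :
    (l.map x).prod = evF x m (fun i => (l.count i : ℤ)) := by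
  unfold evF
  induction l with
  | nil => simp
  | cons a l ih =>
    have ha : a < m := hl a (by simp)
    rw [List.map_cons, List.prod_cons, ih (fun i hi => hl i (by simp [hi]))]
    have e : ∀ i, x i ^ (((a :: l).count i : ℕ) : ℤ) = (if i = a then x i else 1) * x i ^ ((l.count i : ℕ) : ℤ) := by
      intro i
      by_cases h : i = a
      · subst h
        rw [List.count_cons_self, if_pos rfl]
        push_cast
        rw [zpow_add, zpow_one, mul_comm]
      · rw [List.count_cons_of_ne (Ne.symm h), if_neg h, one_mul]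
    rw [Finset.prod_congr rfl (fun i _ => e i), Finset.prod_mul_distrib, Finset.prod_ite_eq' _ a]
    simp [Finset.mem_range.mpr ha]

/-- A row given by the difference of two lists. -/
def diffRow (m : ℕ) (l l' : List ℕ) : List ℤ :=
  (List.range m).map fun i => (l.count i : ℤ) - (l'.count i : ℤ)

theorem diffRow_ev (x : ℕ → A) (m : ℕ) (l l' : List ℕ) (hl : ∀ i ∈ l, i < m) (hl' : ∀ i ∈ l', i < m)
    (h : (l.map x).prod = (l'.map x).prod) : evF x m (fun i => (diffRow m l l').getD i 0) = 1 := by
  rw [prod_map_eq_evF x m l hl, prod_map_eq_evF x m l' hl'] at h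
  have e : evF x m (fun i => (diffRow m l l').getD i 0) =
      evF x m (fun i => (l.count i : ℤ)) * (evF x m (fun i => (l'.count i : ℤ)))⁻¹ := by
    have h1 := evF_mul x m (-1) (fun i => (l'.count i : ℤ))
    rw [zpow_neg_one] at h1
    rw [← h1, ← evF_add]
    unfold evF
    refine Finset.prod_congr rfl fun i hi => ?_
    congr 1
    have hi' := Finset.mem_range.mp hi
    unfold diffRow
    beta_reduce
    rw [List.getD_eq_getElem _ _ (by simpa using hi')]
    simp only [List.getElem_map, List.getElem_range]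
    ring
  rw [e, h, mul_inv_cancel]

/-- A row given by a unit vector. -/
def unitRow (m j : ℕ) : List ℤ := (List.range m).map fun i => if i = j then 1 else 0

theorem unitRow_ev (x : ℕ → A) (m j : ℕ) (hj : j < m) (h : x j = 1) : evF x m (fun i => (unitRow m j).getD i 0) = 1 := by
  unfold evF
  refine Finset.prod_eq_one fun i hi => ?_
  have hi' := Finset.mem_range.mp hi
  unfold unitRow
  beta_reduce
  rw [List.getD_eq_getElem _ _ (by simpa using hi')]
  simp only [List.getElem_map, List.getElem_range]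
  by_cases e : i = j
  · subst e
    simp [h]
  · simp [e]

end Lin

end Cfsg.Agent.Lib.Sporadic.Co3Mult
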